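import Cfsg.Agent.Mult.Slices
import Cfsg.Agent.Mult.Fam
import Cfsg.Agent.Chev.DataG2

set_option autoImplicit false
set_option Elab.async false
set_option maxRecDepth 100000
set_option linter.all false

namespace Cfsg.Agent.G23C
open Cfsg.Agent.CGT

open Cfsg.Agent.Mult

open Cfsg.Lie
noncomputable def ix : Ix Cfsg.Lie.chevG2.Idx := ⟨Sum.elim (·.1) (2 + ·.1), 14, by decide +kernel, by decide +kernel, by decide +kernel⟩
noncomputable def Es : List (ℕ × ℕ) := [(7, 1), (7, 2), (4, 1), (4, 2), (6, 1), (6, 2), (5, 1), (5, 2)]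
noncomputable def Bs : List Pl := [[(0x41, 0), (2, 0), (4, 0), (8, 0), (0x10, 8), (0x20, 0x18), (0x40, 0), (0x80, 8), (0x100, 0), (0x203, 0x40), (0x400, 0x100), (0xd00, 0), (0x1100, 0), (0x2000, 0)],
  [(1, 0x40), (2, 0), (4, 0), (8, 0), (0x18, 0), (0x30, 8), (0x40, 0), (0x88, 0), (0x100, 0), (0x200, 0x43), (0x500, 0), (0x900, 0x400), (0x1000, 0x100), (0x2000, 0)],
  [(1, 0x200), (2, 0), (4, 0), (8, 0x80), (0x90, 0x20), (0xa0, 0), (0x40, 0x203), (0x80, 0), (0x1100, 0), (0x200, 0), (0xc00, 0x1000), (0x1800, 0), (0x1000, 0), (0x2000, 0)],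
  [(0x201, 0), (2, 0), (4, 0), (0x88, 0), (0xb0, 0), (0x20, 0x80), (0x43, 0x200), (0x80, 0), (0x100, 0x1000), (0x200, 0), (0x400, 0x1800), (0x800, 0x1000), (0x1000, 0), (0x2000, 0)],
  [(1, 0), (0x82, 0), (4, 0), (8, 4), (0x10, 0), (0x20, 0), (0x40, 0x20), (0x80, 0), (0x102, 0x80), (0x200, 0), (0x600, 0), (0x800, 0), (0x1000, 0), (0x3000, 0)],
  [(1, 0), (2, 0x80), (4, 0), (0xc, 0), (0x10, 0), (0x20, 0), (0x60, 0), (0x80, 0), (0x100, 0x82), (0x200, 0), (0x400, 0x200), (0x800, 0), (0x1000, 0), (0x2000, 0x1000)],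
  [(1, 0), (2, 0x100), (4, 8), (8, 0), (0x10, 0), (0x20, 0x40), (0x40, 0), (0x80, 0x102), (0x100, 0), (0x600, 0), (0x400, 0), (0x800, 0), (0x3000, 0), (0x2000, 0)],
  [(1, 0), (0x102, 0), (0xc, 0), (8, 0), (0x10, 0), (0x60, 0), (0x40, 0), (0x82, 0x100), (0x100, 0), (0x200, 0x400), (0x400, 0), (0x800, 0), (0x1000, 0x2000), (0x2000, 0)]]

end Cfsg.Agent.G23C
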