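import Cfsg.Agent.Mult.Slices
import Cfsg.Agent.G23C.CertD

set_option autoImplicit false
set_option Elab.async false
set_option maxRecDepth 100000
set_option linter.all false

namespace Cfsg.Agent.G23C
open Cfsg.Agent.CGT

open Cfsg.Agent.Mult

set_option Elab.async false
theorem h_der : derB 3 14 Bs Ws Rs = true := by decide +kernel
theorem h_gen : genB 3 14 Bs Rs [0, 2, 4, 6] Us = true := by decide +kernel
theorem h_red : redB 3 Ps 351 = true := by decide +kernel
theorem h_fix : fixAbove 9 351 m_ns = true := by decide +kernel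
theorem h_sc : ∀ p ∈ Ts0, p.1 ≠ 0 ∧ kf3.Chk ix (fun z z' => if z = z' then p.1 else 0) p.2 := by decide +kernel
theorem h_len : Ps.length ≤ 14 := by decide +kernel
theorem h_lead : leadB 14 1 Ps 351 = true := by decide +kernel
theorem h_a0 : actB 3 14 Rs Ts Ps m_ns 0 = true := by decide +kernel

end Cfsg.Agent.G23C
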