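import Cfsg.Agent.Mult.Slices
import Cfsg.Agent.G23C.Tabs

set_option autoImplicit false
set_option Elab.async false
set_option maxRecDepth 100000
set_option linter.all false

namespace Cfsg.Agent.G23C
open Cfsg.Agent.CGT

open Cfsg.Agent.Mult

noncomputable def u2_D : PC := ⟨2, 6, 2, 17,
  [[0, 0x44, 0x110, 0x40, 0x500, 0x400], [0, 0, 0x10, 0x40, 0x500, 0x400], [0, 0, 0x400, 0x440, 0x500, 0x400], [0, 0, 0, 0, 0x100, 0x400], [0, 0, 0, 0, 0x400, 0x400], [0, 0, 0, 0, 0, 0]],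
  [0xcf, 0x30, 0xf, 0, 0, 0],
  [(6, 4, 0x450), (6, 0x40, 0x114), (6, 0x100, 0x100), (6, 0x400, 0x400), (7, 0x10, 0x110), (7, 0x100, 0x410), (7, 0x400, 0x400), (8, 1, 0x144), (8, 0x40, 0x400)], 13, 0x300000105020400000000⟩
noncomputable def u2_ds : List (List ℕ) := [[4, 2, 6, 5, 0, 2, 6, 4, 0, 6, 5, 6, 2, 4], [2, 4, 2, 5, 6], [0, 2, 4, 6, 5, 6, 2, 4, 0, 6, 2, 4, 2], [6, 2, 5, 0, 2, 5, 2, 6, 0, 6, 5, 0, 6, 5], [0, 5, 6, 4, 2, 6, 5, 2, 0, 5, 0, 6, 5], [0, 4, 0, 6, 0, 6, 4, 0, 4, 6], [4, 2, 6, 5, 6, 0, 6, 0, 2, 6, 2, 6, 5], [2, 6, 0, 2, 5, 2, 5, 6, 5, 2, 0, 4], [5, 2, 5, 6, 5, 6, 5, 0, 4, 2, 5, 6, 5]]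
noncomputable def u2_c : Mult.Cert := ⟨20, 15, [[], [], [], [1], [2], [15]],
  [],
  [[0x934f, 0, 0, 0x16002, 0x53ba0, 0x13000], [0, 0x522ee, 0x42750, 0x1a002, 0x3600, 0x20000], [0, 0, 0xc02ac, 0, 0x2a0, 0x80000], [0, 0, 0, 0x12002, 0x53400, 0x10000], [0, 0, 0, 0, 0x413a0, 0x40000], [0, 0, 0, 0, 0, 0x12000]]⟩

end Cfsg.Agent.G23C
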