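import Cfsg.Agent.Mult.Slices
import Cfsg.Agent.G23C.Mul2D

set_option autoImplicit false
set_option Elab.async false
set_option maxRecDepth 100000
set_option linter.all false

namespace Cfsg.Agent.G23C
open Cfsg.Agent.CGT

open Cfsg.Agent.Mult

set_option Elab.async false
theorem u2_all : allB u2_D u2_c [.assoc 0x10 0x10 0x10, .assoc 0x100 0x100 0x100, .assoc 0x10 0x10 4, .assoc 0x100 0x40 1, .assoc 4 4 1, .assoc 4 1 1, .assoc 0x40 0x40 0x10, .assoc 0x100 1 1, .assoc 0x10 1 1, .assoc 0x40 0x10 1, .assoc 0x10 4 1, .assoc 0x10 0x10 1, .fus 6 [2, 2] [3], .fus 6 [0, 0] [], .fus 6 [2, 0] [0, 2, 3], .fus 6 [1, 1] [], .fus 7 [5, 5] [6], .fus 7 [4, 4] [6], .fus 8 [8, 8] [], .fus 8 [7, 7] []] 9 m_ts u2_ds [2, 9, 1, 0] [(77, [1]), (1, [0x100, 0x40]), (21, [0x400, 0x50]), (0, [0x144])] = true := by decide +kernel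

end Cfsg.Agent.G23C
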