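import Cfsg.Agent.Mult.Slices
import Cfsg.Agent.G23C.Tabs

set_option autoImplicit false
set_option Elab.async false
set_option maxRecDepth 100000
set_option linter.all false

namespace Cfsg.Agent.G23C
open Cfsg.Agent.CGT

open Cfsg.Agent.Mult

noncomputable def u3_D : PC := ⟨3, 6, 2, 25,
  [[0, 0x44, 0x210, 0x140, 0x100, 0x400], [0, 0, 0x490, 0x440, 0x100, 0x400], [0, 0, 0, 0x140, 0x100, 0x400], [0, 0, 0, 0, 0x100, 0x400], [0, 0, 0, 0, 0, 0x400], [0, 0, 0, 0, 0, 0]],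
  [0x3f, 0xf, 3, 0, 0, 0],
  [(6, 1, 0x202), (6, 4, 0x444), (6, 0x10, 0x20), (6, 0x40, 0x80), (6, 0x100, 0x100), (6, 0x400, 0x800), (7, 1, 0x960), (7, 4, 0x488), (7, 0x10, 0x42), (7, 0x40, 0x840), (7, 0x100, 0x200)], 13, 0x20304030105020400010005⟩
noncomputable def u3_ds : List (List ℕ) := [[2, 6, 5, 2, 6, 0, 6, 4, 0, 2, 6, 5], [2, 4, 2, 4, 2, 4, 2, 4], [2, 5, 0, 5, 6, 0, 6, 2, 5, 6, 2, 5, 2], [2, 5, 2, 5, 0, 6, 0, 5, 2, 6, 2, 5, 6], [4, 0, 4, 0, 2, 6, 5, 2, 5, 6, 0, 6, 0], [5, 6, 5, 0, 4, 2, 5, 6, 5, 0, 4, 2], [2, 6, 0, 4, 6, 5, 6, 5, 6], [4, 2, 5, 6, 4, 0, 4, 2, 0, 6, 5, 2, 5]]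
noncomputable def u3_c : Mult.Cert := ⟨37, 21, [[], [], [], [1], [3], [9]],
  [([17], 1, 0x545c5a29148ff4108)],
  [[0xf651411, 0, 0x204a5f9c7, 0, 0x19fc0d7d8, 0xa288075d], [0, 0x2963f40, 0xc17ab114, 0, 0x143520df1, 0x110a92088], [0, 0, 0x19a1, 0x19202130e, 0x4ce3, 2], [0, 0, 0, 0x1a7d4f9ca, 0x19fa83722, 0x2e2f2292], [0, 0, 0, 0, 0xf650b86, 0x4546b3db], [0, 0, 0, 0, 0, 0x521ae82]]⟩

end Cfsg.Agent.G23C
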