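import Cfsg.Agent.Mult.Slices
import Cfsg.Agent.G23C.Mul3D

set_option autoImplicit false
set_option Elab.async false
set_option maxRecDepth 100000
set_option linter.all false

namespace Cfsg.Agent.G23C
open Cfsg.Agent.CGT

open Cfsg.Agent.Mult

set_option Elab.async false
theorem u3_all : allB u3_D u3_c [.assoc 0x800 0x400 0x10, .assoc 0x100 4 1, .assoc 0x100 0x40 4, .assoc 0x400 4 1, .assoc 0x80 0x40 1, .assoc 0x80 0x40 4, .assoc 0x40 4 1, .assoc 4 2 1, .assoc 0x40 0x10 1, .assoc 0x40 0x10 4, .assoc 8 4 1, .assoc 0x10 4 1, .fus 6 [4, 2] [2, 4], .fus 6 [2, 2, 2] [], .fus 6 [0, 0, 0] [], .fus 6 [3, 1] [1, 3, 5], .fus 6 [1, 0] [0, 1, 3], .fus 6 [2, 1] [1, 2, 3, 3, 5], .fus 7 [9, 8] [8, 9, 10], .fus 7 [7, 7, 7] [], .fus 7 [8, 6] [6, 8, 10, 10]] 9 m_ts u3_ds [2, 9, 1, 0] [(7, [0x100, 0x40, 0x10]), (11, [0x104, 0x221]), (0, [0x400])] = true := by decide +kernel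

end Cfsg.Agent.G23C
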