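import Cfsg.Agent.Mult.Slices
import Cfsg.Agent.G23C.Tabs
import Cfsg.Agent.G23C.PresR

set_option autoImplicit false
set_option Elab.async false
set_option maxRecDepth 100000
set_option linter.all false

namespace Cfsg.Agent.G23C
open Cfsg.Agent.CGT

open Cfsg.Agent.Mult

noncomputable def mulc3_C : List (ℕ × ℕ) := [(0x338846dfc260140c691ab9227e040268f2a8311083301050f362665306e801352ad5c8223d2cc5fe842a4554, 0x4027b100108b80600400060000811883050602a1288000290000118c00108802802821090210100143000a2a),
  (0x40900000020920220802080003200b01242220031040000000104000e4002485c001000400220040062000, 0x20240c210000040c002000440008022010091c90948010002009002600080000003002008084142080088008),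
  (0x10c91042a0c0c42000890a000108849200018400100204000c840402920240280050000622005484200058, 0x2005020420001000040000442804005240998010100240118280408804040103420f01430084102001140f06),
  (0x3015a0c810040801020000420004404438e040440002810802440440101816410c08a108241800015000100, 0x205200000099020080d01930001c020210010810a000004031802103840a0008820b402328042a0140020020)]
noncomputable def mulc3_U : ℕ := Nat.sub (Nat.pow 2 351) 1
noncomputable def mulc3_a : List ℕ := [1, 0, 0, 0, 0, 0, 0, 0, 0, 0, 0, 1, 0, 0, 1, 1, 0, 2, 2]

end Cfsg.Agent.G23C
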